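import Cfsg.Agent.Lib.TC.Chain
import Cfsg.Agent.Lib.Schur.U62.S6.CT0

namespace Cfsg.Agent.Lib.Schur.U62.S6.Tab

open Cfsg.Agent.Lib.TC.Core Cfsg.Agent.Lib.TC.Enc Cfsg.Agent.Lib.TC.Pres Cfsg.Agent.Lib.TC.Perm Cfsg.Agent.Lib.TC.Main Cfsg.Agent.Lib.TC.Chain

set_option maxRecDepth 100000

/-- The chunks. -/
noncomputable def ctree : Tr Nat := Cfsg.Agent.Lib.Schur.U62.S6.CT0.tree

/-- The relator rotations. -/
noncomputable def rotT : Tr (List Nat) := (Tr.node (Tr.node (Tr.node (Tr.leaf []) (Tr.leaf [2,1,2,1,2,1])) (Tr.node (Tr.leaf [0,2,0,2]) (Tr.leaf [1,1]))) (Tr.node (Tr.node (Tr.leaf [1,0,1,0,1,0]) (Tr.leaf [0,0])) (Tr.node (Tr.leaf [2,0,2,0]) (Tr.leaf [2,2]))))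

/-- The witnesses of the rotations. -/
noncomputable def witT : Tr (Nat × Nat × Bool) := (Tr.node (Tr.node (Tr.node (Tr.leaf (0,0,false)) (Tr.leaf (2,2,false))) (Tr.node (Tr.leaf (1,1,false)) (Tr.leaf (3,1,false)))) (Tr.node (Tr.node (Tr.leaf (0,2,false)) (Tr.leaf (3,0,false))) (Tr.node (Tr.leaf (1,2,false)) (Tr.leaf (3,2,false)))))

/-- The subgroup rotations. -/
noncomputable def srotT : Tr (List Nat × Nat × List Nat) := (Tr.node (Tr.leaf ([],0,[])) (Tr.leaf ([],1,[])))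

/-- The certificate. -/
noncomputable def cert : Cert :=
  mkCert 3 4 12 1 8 10 8 255 41 10 30 37 1023 127 4 2 15 3 6 4 3 ctree.get rotT.get srotT.get

/-- The letters. -/
def ls : List Nat := [1,2,3]

/-- The smaller letters. -/
def ls' : List Nat := [1,2]

/-- The inverses. -/
def inv' (c : Nat) : Nat := [0,1,2].getD c 0

/-- The relators. -/
def rels' : List (List Nat) :=
  [[1,0,1,0,1,0],
   [2,0,2,0],
   [2,1,2,1,2,1]]

/-- The words of the subgroup. -/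
def subs' : List (List Nat) :=
  [[0],
   [1]]

end Cfsg.Agent.Lib.Schur.U62.S6.Tab
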